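import Mathlib
import Cfsg.Agent.ItoDesign48.Setup

/-!
A finite projective plane with a collineation group which is doubly transitive on points, seen as a
symmetric design.
-/

set_option autoImplicit false

namespace CfsgLib.OWGlue

open MulAction Finset Configuration
open scoped Classical

section Orbits

variable {G X Y : Type*} [Group G] [Finite G] [MulAction G X] [MulAction G Y] [Fintype X]
  [Fintype Y]

/-- Equal numbers of fixed points give equal numbers of orbits. -/
theorem card_orbits_eq (h : ∀ g : G, #{x : X | g • x = x} = #{y : Y | g • y = y}) :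
    Nat.card (orbitRel.Quotient G X) = Nat.card (orbitRel.Quotient G Y) := by
  letI : Fintype G := Fintype.ofFinite G
  letI : Fintype (orbitRel.Quotient G X) := Fintype.ofFinite _
  letI : Fintype (orbitRel.Quotient G Y) := Fintype.ofFinite _
  have b1 := MulAction.sum_card_fixedBy_eq_card_orbits_mul_card_group G X
  have b2 := MulAction.sum_card_fixedBy_eq_card_orbits_mul_card_group G Y
  have hs : ∑ g : G, Fintype.card (fixedBy X g) = ∑ g : G, Fintype.card (fixedBy Y g) := by
    refine Finset.sum_congr rfl fun g _ => ?_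
    rw [Fintype.card_subtype, Fintype.card_subtype]
    exact h g
  rw [b1, b2] at hs
  rw [Nat.card_eq_fintype_card, Nat.card_eq_fintype_card]
  exact Nat.eq_of_mul_eq_mul_right Fintype.card_pos hs

omit [Finite G] in
/-- Two classes `S`, `Sᶜ` carrying one orbit each give at most two orbits. -/
theorem card_orbits_le_two (S : X → Prop) (hS : ∀ x y, (S x ↔ S y) → ∃ g : G, g • x = y) :
    Nat.card (orbitRel.Quotient G X) ≤ 2 := by
  have hinj : Function.Injective fun q : orbitRel.Quotient G X => decide (S q.out) := by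
    intro q q' e
    obtain ⟨g, hg⟩ := hS q.out q'.out (by simpa using e)
    rw [← Quotient.out_eq q, ← Quotient.out_eq q']
    exact (Quotient.sound (orbitRel_apply.2 ⟨g, hg⟩)).symm
  simpa using Nat.card_le_card_of_injective _ hinj

omit [Finite G] in
/-- With at most two orbits, an invariant property separates them. -/
theorem exists_smul_of_two_orbits (h2 : Nat.card (orbitRel.Quotient G X) ≤ 2) (S : X → Prop)
    (hinv : ∀ (g : G) x, S (g • x) ↔ S x) (ha : ∃ a, S a) (hb : ∃ b, ¬ S b) {x y : X}
    (hxy : S x ↔ S y) : ∃ g : G, g • x = y := by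
  obtain ⟨a, ha⟩ := ha
  obtain ⟨b, hb⟩ := hb
  letI : Fintype (orbitRel.Quotient G X) := Fintype.ofFinite _
  let q : X → orbitRel.Quotient G X := fun z => Quotient.mk'' z
  by_contra hc
  have hxy' : q x ≠ q y := by
    intro e
    obtain ⟨g, hg⟩ := orbitRel_apply.1 (Quotient.exact' e.symm)
    exact hc ⟨g, hg⟩
  have hsep : ∀ u v, q u = q v → (S u ↔ S v) := by
    intro u v e
    obtain ⟨g, hg⟩ := orbitRel_apply.1 (Quotient.exact' e)
    rw [← hg]; exact hinv g v
  obtain ⟨c, hc1, hc2⟩ : ∃ c, q c ≠ q x ∧ q c ≠ q y := by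
    by_cases hx : S x
    · exact ⟨b, fun e => hb ((hsep _ _ e).2 hx), fun e => hb ((hsep _ _ e).2 (hxy.1 hx))⟩
    · exact ⟨a, fun e => hx ((hsep _ _ e).1 ha), fun e => hx (hxy.2 ((hsep _ _ e).1 ha))⟩
  have h3 := Finset.card_le_univ ({q c, q x, q y} : Finset _)
  rw [Finset.card_eq_three.2 ⟨_, _, _, hc1, hc2, hxy', rfl⟩, ← Nat.card_eq_fintype_card] at h3
  omega

end Orbits

variable {G P L : Type*} [Group G] [Finite G] [MulAction G P] [MulAction G L] [Membership P L]
  [Fintype P] [Fintype L] [ProjectivePlane P L]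

theorem card_pts (l : L) : #{p : P | p ∈ l} = ProjectivePlane.order P L + 1 := by
  rw [← ProjectivePlane.pointCount_eq (P := P) l, pointCount, ← Fintype.card_subtype,
    Nat.card_eq_fintype_card]

theorem card_lns (p : P) : #{l : L | p ∈ l} = ProjectivePlane.order P L + 1 := by
  rw [← ProjectivePlane.lineCount_eq (L := L) p, lineCount, ← Fintype.card_subtype,
    Nat.card_eq_fintype_card]

theorem card_line_through {p q : P} (h : p ≠ q) : #{l : L | p ∈ l ∧ q ∈ l} = 1 := by
  obtain ⟨l, hl, huniq⟩ := HasLines.existsUnique_line P L p q h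
  refine Finset.card_eq_one.2 ⟨l, ?_⟩
  ext m
  simp only [Finset.mem_filter, Finset.mem_univ, true_and, Finset.mem_singleton]
  exact ⟨fun hm => huniq m hm, fun e => e ▸ hl⟩

theorem card_point_on {l m : L} (h : l ≠ m) : #{p : P | p ∈ l ∧ p ∈ m} = 1 := by
  obtain ⟨p, hp, huniq⟩ := HasPoints.existsUnique_point P L l m h
  refine Finset.card_eq_one.2 ⟨p, ?_⟩
  ext q
  simp only [Finset.mem_filter, Finset.mem_univ, true_and, Finset.mem_singleton]
  exact ⟨fun hq => huniq q hq, fun e => e ▸ hp⟩

variable (hinc : ∀ (g : G) (p : P) (l : L), g • p ∈ g • l ↔ p ∈ l)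

include hinc in
omit [Finite G] in
theorem card_fix_eq (g : G) : #{p : P | g • p = p} = #{l : L | g • l = l} := by
  obtain ⟨e⟩ : Nonempty (P ≃ L) :=
    ⟨Fintype.equivOfCardEq (ProjectivePlane.card_points_eq_card_lines P L)⟩
  set M : Matrix P P ℚ := Matrix.of fun x y => if x ∈ e y then (1 : ℚ) else 0 with hM
  have hMM : ∀ x y, (M * M.transpose) x y =
      if x = y then (ProjectivePlane.order P L : ℚ) + 1 else 1 := by
    intro x y
    have h1 : (M * M.transpose) x y = (#{l : L | x ∈ l ∧ y ∈ l} : ℕ) := by
      rw [Finset.natCast_card_filter, ← Equiv.sum_comp e]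
      simp only [hM, Matrix.mul_apply, Matrix.transpose_apply, Matrix.of_apply]
      exact Finset.sum_congr rfl fun z _ => by split_ifs <;> simp_all
    rw [h1]
    split_ifs with hxy
    · subst hxy
      simp [card_lns]
    · rw [card_line_through hxy]; simp
  have hdet := ItoDesign48.isUnit_det_of_design M (ProjectivePlane.order P L : ℚ) 1 hMM
    (by exact_mod_cast (Nat.zero_lt_one.trans (ProjectivePlane.one_lt_order P L))) zero_le_one
  have h := ItoDesign48.card_fix_eq_of_intertwine M hdet (MulAction.toPerm g)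
    ((e.trans (MulAction.toPerm g)).trans e.symm) fun x y => by
      simp only [hM, Matrix.of_apply, Equiv.trans_apply, Equiv.apply_symm_apply,
        MulAction.toPerm_apply, hinc]
  simp only [MulAction.toPerm_apply] at h
  refine h.trans (Finset.card_equiv e fun x => ?_)
  simp [Equiv.symm_apply_eq]

variable (h2 : ∀ a b c d : P, a ≠ b → c ≠ d → ∃ g : G, g • a = c ∧ g • b = d)

include hinc h2 in
theorem transL : ∀ a b c d : L, a ≠ b → c ≠ d → ∃ g : G, g • a = c ∧ g • b = d := by
  intro a b c d hab hcd
  have h2P : Nat.card (orbitRel.Quotient G (P × P)) ≤ 2 := by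
    refine card_orbits_le_two (fun z : P × P => z.1 = z.2) ?_
    rintro ⟨x, x'⟩ ⟨y, y'⟩ hxy
    by_cases hx : x = x'
    · have hy : y = y' := hxy.1 hx
      subst hx hy
      by_cases hxy' : x = y
      · exact ⟨1, by rw [one_smul, hxy']⟩
      · obtain ⟨g, hg, -⟩ := h2 x y y x hxy' (Ne.symm hxy')
        exact ⟨g, Prod.ext hg hg⟩
    · obtain ⟨g, hg1, hg2⟩ := h2 x x' y y' hx fun e => hx (hxy.2 e)
      exact ⟨g, Prod.ext hg1 hg2⟩
  have hfix : ∀ g : G, #{z : P × P | g • z = z} = #{z : L × L | g • z = z} := by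
    intro g
    have e1 : ({z : P × P | g • z = z} : Finset (P × P))
        = ({p : P | g • p = p} : Finset P) ×ˢ ({p : P | g • p = p} : Finset P) := by
      ext ⟨x, y⟩; simp
    have e2 : ({z : L × L | g • z = z} : Finset (L × L))
        = ({p : L | g • p = p} : Finset L) ×ˢ ({p : L | g • p = p} : Finset L) := by
      ext ⟨x, y⟩; simp
    rw [e1, e2, Finset.card_product, Finset.card_product, card_fix_eq hinc g]
  have h2L : Nat.card (orbitRel.Quotient G (L × L)) ≤ 2 := by
    rwa [← card_orbits_eq (G := G) (X := P × P) (Y := L × L) fun g => by convert hfix g]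
  obtain ⟨g, hg⟩ := exists_smul_of_two_orbits (G := G) h2L (fun z : L × L => z.1 = z.2)
    (fun g z => by simp only [Prod.smul_fst, Prod.smul_snd, smul_left_cancel_iff])
    ⟨(a, a), rfl⟩ ⟨(a, b), hab⟩ (x := (a, b)) (y := (c, d)) (iff_of_false hab hcd)
  exact ⟨g, congrArg Prod.fst hg, congrArg Prod.snd hg⟩

include hinc h2 in
theorem transB (B : L) (y y' : P) (hiff : y ∈ B ↔ y' ∈ B) :
    ∃ g : G, g • B = B ∧ g • y = y' := by
  let S := stabilizer G B
  have hL2 : Nat.card (orbitRel.Quotient S L) ≤ 2 := by
    refine card_orbits_le_two (fun X : L => X = B) ?_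
    intro X X' hXX
    by_cases hX : X = B
    · exact ⟨1, by rw [one_smul, hX, hXX.1 hX]⟩
    · obtain ⟨g, hg1, hg2⟩ := transL hinc h2 B X B X' (Ne.symm hX)
        (fun e => hX (hXX.2 e.symm))
      exact ⟨⟨g, hg1⟩, hg2⟩
  have hP2 : Nat.card (orbitRel.Quotient S P) ≤ 2 := by
    rw [card_orbits_eq (Y := L) fun g : S => ?_]
    · exact hL2
    · exact card_fix_eq hinc (g : G)
  have ha : ∃ a : P, a ∈ B := by
    have h := card_pts (P := P) B
    obtain ⟨a, ha⟩ := Finset.card_pos.1 (show 0 < #{p : P | p ∈ B} by omega)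
    exact ⟨a, (Finset.mem_filter.1 ha).2⟩
  obtain ⟨g, hg⟩ := exists_smul_of_two_orbits (G := S) hP2 (fun p : P => p ∈ B)
    (fun g p => by
      conv_rhs => rw [← hinc (g : G)]
      rw [show (g : G) • B = B from g.2]
      rfl)
    ha (Nondegenerate.exists_point B) hiff
  exact ⟨g, g.2, hg⟩

/-- The plane as a symmetric design. -/
noncomputable def toSym : ItoDesign48.Sym G P L where
  inc p l := p ∈ l
  inc_smul := hinc
  k := ProjectivePlane.order P L + 1
  l := 1
  pts B := by convert card_pts (P := P) B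
  thru y := by convert card_lns (L := L) y
  pairP y z h := by convert card_line_through (L := L) h
  pairQ B C h := by convert card_point_on (P := P) h
  fix_eq g := by convert card_fix_eq hinc g
  cardQ := (ProjectivePlane.card_points_eq_card_lines P L).symm
  transP := h2
  transQ := transL hinc h2
  transB B y y' h := transB hinc h2 B y y' h
  two_le_k := by have := ProjectivePlane.one_lt_order P L; omega
  k_add_two := by
    have := ProjectivePlane.one_lt_order P L
    rw [ProjectivePlane.card_points P L]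
    nlinarith
  mul_eq := by
    rw [ProjectivePlane.card_points P L, Nat.add_sub_cancel, Nat.add_sub_cancel, one_mul]
    ring

end CfsgLib.OWGlue
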