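import Mathlib
import Cfsg.Agent.OWGlue.Design
import Cfsg.Agent.ItoDesign48.Main

/-!
A doubly transitive collineation group with a non-trivial element fixing a line pointwise makes the
plane Desarguesian.
-/

set_option autoImplicit false

namespace CfsgLib.OWGlue

open MulAction Finset Configuration ItoDesign48
open scoped Classical

universe uG

variable {F : Type} [Field F]

/-- Any plane of `F³` is the image of the plane `u 0 = 0` under a matrix of determinant one. -/
theorem exists_sl_plane (W : Submodule F (Fin 3 → F)) (hW : Module.finrank F W = 2) :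
    ∃ M : Matrix.SpecialLinearGroup (Fin 3) F, ∀ u, u ∈ W ↔ (M⁻¹).1.mulVec u 0 = 0 := by
  let b := Module.finBasisOfFinrankEq F W hW
  obtain ⟨w0, hw0⟩ : ∃ w0 : Fin 3 → F, w0 ∉ W := by
    by_contra h
    push Not at h
    have hW' : W = ⊤ := Submodule.eq_top_iff'.2 h
    rw [hW', finrank_top, Module.finrank_fin_fun] at hW
    omega
  let col : Fin 3 → (Fin 3 → F) := Fin.cons w0 fun i => (b i : Fin 3 → F)
  have hli : LinearIndependent F col := by
    rw [linearIndependent_finCons]
    refine ⟨b.linearIndependent.map' W.subtype (Submodule.ker_subtype W), fun h => hw0 ?_⟩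
    exact Submodule.span_le.2 (Set.range_subset_iff.2 fun i => (b i).2) h
  let A : Matrix (Fin 3) (Fin 3) F := Matrix.of fun i j => col j i
  have hA : IsUnit A.det :=
    (Matrix.isUnit_iff_isUnit_det A).1 (Matrix.linearIndependent_cols_iff_isUnit.1 hli)
  have hd : A.det ≠ 0 := hA.ne_zero
  let A' : Matrix (Fin 3) (Fin 3) F := A * Matrix.diagonal (Fin.cons A.det⁻¹ fun _ => 1)
  have hA' : A'.det = 1 := by
    simp [A', Fin.prod_univ_succ, hd]
  refine ⟨⟨A', hA'⟩, fun u => ?_⟩
  set M : Matrix.SpecialLinearGroup (Fin 3) F := ⟨A', hA'⟩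
  set v := (M⁻¹).1.mulVec u with hv
  have hu : u = ∑ j, ((Fin.cons A.det⁻¹ (fun _ => 1) : Fin 3 → F) j * v j) • col j := by
    have h : u = A'.mulVec v := by
      rw [hv, Matrix.mulVec_mulVec, show A' = M.1 from rfl,
        ← Matrix.SpecialLinearGroup.coe_mul, mul_inv_cancel,
        Matrix.SpecialLinearGroup.coe_one, Matrix.one_mulVec]
    rw [h]
    funext i
    rw [← Matrix.mulVec_mulVec, Matrix.mulVec, dotProduct, Finset.sum_apply]
    refine Finset.sum_congr rfl fun j _ => ?_
    rw [Matrix.mulVec_diagonal, Pi.smul_apply, smul_eq_mul]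
    show A i j * _ = _
    simp only [A, Matrix.of_apply]
    ring
  rw [Fin.sum_univ_succ, Fin.cons_zero] at hu
  have hmem : (∑ i : Fin 2, ((Fin.cons A.det⁻¹ (fun _ => 1) : Fin 3 → F) i.succ * v i.succ) •
      col i.succ) ∈ W := Submodule.sum_mem _ fun i _ => by
    simp [col, W.smul_mem]
  constructor
  · intro huW
    rw [hu] at huW
    have h := (Submodule.add_mem_iff_left W hmem).1 huW
    by_contra hne
    exact hw0 ((W.smul_mem_iff (mul_ne_zero (inv_ne_zero hd) hne)).1 (by simpa [col, mul_smul] using h))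
  · intro h0
    rw [hu, h0]
    simpa using hmem

variable [Fintype F] {G : Type uG} {P L : Type*} [Group G] [Fintype G] [MulAction G P]
  [MulAction G L] [Fintype P] [Fintype L] [FaithfulSMul G P] {D : Sym G P L} {T : Elation D}
  {B : L} (C : Coord T B F 2)

/-- Every plane of `F³` is the set of coordinate vectors of a block. -/
theorem exists_block (W : Submodule F (Fin 3 → F)) (hW : Module.finrank F W = 2) :
    ∃ X : L, ∀ u : Fin 3 → F, u ≠ 0 → (D.inc (C.ptV u) X ↔ u ∈ W) := by
  obtain ⟨M, hM⟩ := exists_sl_plane W hW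
  obtain ⟨x, -, hx⟩ := C.exists_real M
  refine ⟨x • B, fun u hu => ?_⟩
  rw [hM, ← D.inc_smul x⁻¹, inv_smul_smul, Coord.real_inv C hx u hu, Coord.ptV, C.pt_inc]

/-- The points correspond to the points of the projective plane over `F`. -/
theorem exists_equiv : ∃ ψ : Projectivization F (Fin 3 → F) ≃ P,
    ∀ u : Fin 3 → F, ∀ hu : u ≠ 0, ψ (Projectivization.mk F u hu) = C.ptV u := by
  have key : ∀ a b : { v : Fin 3 → F // v ≠ 0 }, ∀ t : F, (a : Fin 3 → F) = t • (b : Fin 3 → F) →
      C.ptV a.1 = C.ptV b.1 := by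
    intro a b t h
    have ht : t ≠ 0 := fun e => a.2 (by rw [h, e, zero_smul])
    rw [Coord.ptV, Coord.ptV, h]
    exact C.pt_smul (Coord.ne_zero_iff.1 b.2) ht
  let f : Projectivization F (Fin 3 → F) → P := Projectivization.lift (fun v => C.ptV v.1) key
  have hf : ∀ u hu, f (Projectivization.mk F u hu) = C.ptV u := fun u hu => rfl
  have hbij : Function.Bijective f := by
    constructor
    · intro a b e
      obtain ⟨u, hu, rfl⟩ : ∃ u hu, Projectivization.mk F u hu = a :=
        ⟨a.rep, a.rep_nonzero, a.mk_rep⟩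
      obtain ⟨v, hv, rfl⟩ : ∃ v hv, Projectivization.mk F v hv = b :=
        ⟨b.rep, b.rep_nonzero, b.mk_rep⟩
      rw [hf, hf, Coord.ptV, Coord.ptV] at e
      obtain ⟨k, hk, h1, h2⟩ :=
        C.exists_smul_of_pt_eq (Coord.ne_zero_iff.1 hu) (Coord.ne_zero_iff.1 hv) e
      symm
      rw [Projectivization.mk_eq_mk_iff']
      refine ⟨k, funext fun i => ?_⟩
      cases i using Fin.cases with
      | zero => exact h1.symm
      | succ i => exact (congrFun h2 i).symm
    · intro p
      obtain ⟨t, v, hne, rfl⟩ := C.exists_pt p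
      have hu : (Fin.cons t v : Fin 3 → F) ≠ 0 := Coord.ne_zero_iff.2 (by simpa using hne)
      exact ⟨Projectivization.mk F _ hu, by rw [hf, Coord.ptV]; simp⟩
  exact ⟨Equiv.ofBijective f hbij, fun u hu => hf u hu⟩

end CfsgLib.OWGlue
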