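import Mathlib
import Cfsg.Agent.OWGlue.Frame

/-!
Desarguesian conclusion and elations, from one non-trivial collineation fixing a line pointwise.
-/

set_option autoImplicit false

namespace CfsgLib.OWGlue

open MulAction Finset Configuration ItoDesign48
open scoped _root_.Classical

section Abstract

variable {G P L : Type*} [Group G] [Finite G] [MulAction G P] [MulAction G L] [Membership P L]
  [Fintype P] [Fintype L] [ProjectivePlane P L] [FaithfulSMul G P]
  (hinc : ∀ (g : G) (p : P) (l : L), g • p ∈ g • l ↔ p ∈ l)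
  (h2 : ∀ a b c d : P, a ≠ b → c ≠ d → ∃ g : G, g • a = c ∧ g • b = d)

include hinc h2 in
/-- The order is a prime power and each line carries an elation of prime order. -/
theorem exists_elation_of_fix_line {x : G} (hx1 : x ≠ 1) {l₀ : L}
    (hx : ∀ p ∈ l₀, x • p = p) :
    ∃ p : ℕ, p.Prime ∧ (∃ a, ProjectivePlane.order P L = p ^ a) ∧
      ∀ l : L, ∃ e : G, e ≠ 1 ∧ e ^ p = 1 ∧ (∀ q ∈ l, e • q = q) ∧
        (∀ q, q ∉ l → e • q ≠ q) ∧ ∃ c : P, c ∈ l ∧ ∀ l' : L, c ∈ l' → e • l' = l' := by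
  letI : Fintype G := Fintype.ofFinite G
  obtain ⟨T⟩ := (toSym hinc h2).exists_elation (B₀ := l₀) (x₀ := x) hx hx1
  obtain ⟨p, hp, hpow⟩ := T.exists_prime_exponent l₀
  have hconj : ∀ l : L, ∃ g : G, g • l₀ = l := by
    intro l
    by_cases h : l₀ = l
    · exact ⟨1, by rw [one_smul, h]⟩
    · obtain ⟨g, hg, -⟩ := transL hinc h2 l₀ l l l₀ h (Ne.symm h)
      exact ⟨g, hg⟩
  refine ⟨p, hp, ?_, fun l => ?_⟩
  · haveI : Fact p.Prime := ⟨hp⟩
    have hcard : Nat.card (T.E l₀) = ProjectivePlane.order P L ^ 2 := by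
      have h1 : #(T.EF l₀) = Fintype.card P - (ProjectivePlane.order P L + 1) := T.card_EF_eq l₀
      rw [ProjectivePlane.card_points P L, Nat.add_assoc, Nat.add_sub_cancel] at h1
      rw [← h1, Nat.card_eq_fintype_card, Fintype.card_subtype]
      rfl
    have hpg : IsPGroup p (T.E l₀) := fun y => ⟨1, Subtype.ext (by simpa using hpow _ y.2)⟩
    obtain ⟨a, ha⟩ := IsPGroup.iff_card.1 hpg
    rw [hcard] at ha
    obtain ⟨b, -, hb⟩ := (Nat.dvd_prime_pow hp).1
      (show ProjectivePlane.order P L ∣ p ^ a from ha ▸ dvd_pow_self _ (by norm_num))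
    exact ⟨b, hb⟩
  · obtain ⟨e, he, he1⟩ : ∃ e ∈ T.E l, e ≠ 1 := by
      by_contra h
      push Not at h
      exact T.ne_bot l ((Subgroup.eq_bot_iff_forall _).2 h)
    obtain ⟨g, hg⟩ := hconj l
    have hpe : e ^ p = 1 := by
      have h := T.conj g⁻¹ l e he
      rw [inv_inv, ← hg, inv_smul_smul] at h
      have h' := hpow _ h
      have hc : (g⁻¹ * e * g) ^ p = g⁻¹ * e ^ p * g := by
        simpa using (conj_pow (a := g⁻¹) (b := e) (i := p))
      rw [hc] at h'
      calc e ^ p = g * (g⁻¹ * e ^ p * g) * g⁻¹ := by group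
        _ = 1 := by rw [h', mul_one, mul_inv_cancel]
    obtain ⟨c, hc, hcX⟩ := T.exists_centre he he1
    exact ⟨e, he1, hpe, T.fixP l e he, fun q hq h => he1 (T.semireg l e he q hq h), c, hc,
      fun X hX => (hcX.1 X).2 hX⟩

include hinc h2 in
/-- The plane is Desarguesian. -/
theorem desarguesian_of_fix_line {x : G} (hx1 : x ≠ 1) {l₀ : L} (hx : ∀ p ∈ l₀, x • p = p) :
    ∃ (F : Type) (_ : Field F) (_ : Fintype F) (φ : P ≃ Projectivization F (Fin 3 → F)),
      (∀ l : L, ∃ W : Submodule F (Fin 3 → F), Module.finrank F W = 2 ∧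
          ∀ p : P, p ∈ l ↔ (φ p).submodule ≤ W) ∧
      (∀ W : Submodule F (Fin 3 → F), Module.finrank F W = 2 →
          ∃ l : L, ∀ p : P, p ∈ l ↔ (φ p).submodule ≤ W) := by
  letI : Fintype G := Fintype.ofFinite G
  obtain ⟨T⟩ := (toSym hinc h2).exists_elation (B₀ := l₀) (x₀ := x) hx hx1
  obtain ⟨F, iF, iFf, m, ⟨C⟩⟩ := exists_coord T l₀
  have hm : m = 2 := by
    have h1 := C.card_points
    have h2' : Fintype.card (Vec T l₀) = Fintype.card F ^ m := by
      rw [Fintype.card_congr C.lin.toEquiv]; simp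
    have h3 : #(T.EF l₀) = Fintype.card P - (ProjectivePlane.order P L + 1) := T.card_EF_eq l₀
    rw [ProjectivePlane.card_points P L, Nat.add_assoc, Nat.add_sub_cancel, ← card_vec, h2'] at h3
    have h4 : (toSym hinc h2).k = ProjectivePlane.order P L + 1 := rfl
    rw [h4, h3, C.cardF.symm] at h1
    have hn := ProjectivePlane.one_lt_order P L
    have hq : 2 ≤ Fintype.card F := Fintype.one_lt_card
    obtain ⟨q', hq'⟩ : ∃ q', Fintype.card F = q' + 1 := ⟨Fintype.card F - 1, by omega⟩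
    rw [hq', Nat.add_sub_cancel] at h1
    have hqn : q' + 1 = ProjectivePlane.order P L := by nlinarith
    rw [hq', hqn] at h3
    exact Nat.pow_right_injective hn h3
  subst hm
  obtain ⟨ψ, hψ⟩ := exists_equiv C
  have hblock : ∀ W : Submodule F (Fin 3 → F), Module.finrank F W = 2 →
      ∃ l : L, ∀ p : P, p ∈ l ↔ (ψ.symm p).submodule ≤ W := by
    intro W hW
    obtain ⟨X, hX⟩ := exists_block C W hW
    refine ⟨X, fun p => ?_⟩
    obtain ⟨z, rfl⟩ := ψ.surjective p
    induction z with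
    | h u hu =>
      rw [Equiv.symm_apply_apply, Projectivization.submodule_mk, Submodule.span_singleton_le_iff_mem,
        hψ u hu]
      exact hX u hu
  refine ⟨F, iF, iFf, ψ.symm, fun l => ?_, hblock⟩
  obtain ⟨a, ha, b, hb, hab⟩ : ∃ a ∈ ({p : P | p ∈ l} : Finset P), ∃ b ∈ ({p : P | p ∈ l} : Finset P),
      a ≠ b := Finset.one_lt_card.1 (by
    have := ProjectivePlane.one_lt_order P L
    rw [card_pts]; omega)
  simp only [Finset.mem_filter, Finset.mem_univ, true_and] at ha hb
  let W := (ψ.symm a).submodule ⊔ (ψ.symm b).submodule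
  have hW : Module.finrank F W = 2 := by
    have h := Submodule.finrank_sup_add_finrank_inf_eq (ψ.symm a).submodule (ψ.symm b).submodule
    rw [Projectivization.finrank_submodule, Projectivization.finrank_submodule] at h
    have hne : (ψ.symm a).submodule ≠ (ψ.symm b).submodule := fun e =>
      hab (ψ.symm.injective (Projectivization.submodule_injective e))
    have hinf : Module.finrank F ↥((ψ.symm a).submodule ⊓ (ψ.symm b).submodule) = 0 := by
      by_contra h0
      have h1 : Module.finrank F ↥((ψ.symm a).submodule ⊓ (ψ.symm b).submodule) ≤ 1 := by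
        rw [← Projectivization.finrank_submodule (ψ.symm a)]
        exact Submodule.finrank_mono inf_le_left
      have e1 := Submodule.eq_of_le_of_finrank_eq
        (inf_le_left : (ψ.symm a).submodule ⊓ (ψ.symm b).submodule ≤ _)
        (by rw [Projectivization.finrank_submodule]; omega)
      have e2 := Submodule.eq_of_le_of_finrank_eq
        (inf_le_right : (ψ.symm a).submodule ⊓ (ψ.symm b).submodule ≤ _)
        (by rw [Projectivization.finrank_submodule]; omega)
      exact hne (e1.symm.trans e2)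
    show Module.finrank F ↥((ψ.symm a).submodule ⊔ (ψ.symm b).submodule) = 2
    omega
  obtain ⟨X, hX⟩ := hblock W hW
  refine ⟨W, hW, fun p => ?_⟩
  have hXl : X = l := (Nondegenerate.eq_or_eq ((hX a).2 le_sup_left) ((hX b).2 le_sup_right) ha hb).resolve_left hab
  exact hXl ▸ hX p

end Abstract

/-- The collineations of a plane. -/
def coll (P L : Type*) [Membership P L] : Subgroup (Equiv.Perm P × Equiv.Perm L) where
  carrier := {g | ∀ (p : P) (l : L), g.1 p ∈ g.2 l ↔ p ∈ l}
  one_mem' := fun _ _ => Iff.rfl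
  mul_mem' := fun {a b} ha hb p l => (ha _ _).trans (hb p l)
  inv_mem' := fun {a} ha p l => by
    have h := ha (a.1⁻¹ p) (a.2⁻¹ l)
    simp only [Equiv.Perm.inv_def, Equiv.apply_symm_apply] at h ⊢
    exact h.symm

/-- Desarguesian conclusion in the vocabulary of permutations. -/
theorem desarguesian {P L : Type*} [Membership P L] [Fintype P] [Fintype L]
    [ProjectivePlane P L]
    (h2t : ∀ p₁ p₂ q₁ q₂ : P, p₁ ≠ p₂ → q₁ ≠ q₂ →
      ∃ (σ : Equiv.Perm P) (τ : Equiv.Perm L),
        (∀ (p : P) (l : L), σ p ∈ τ l ↔ p ∈ l) ∧ σ p₁ = q₁ ∧ σ p₂ = q₂)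
    {s : Equiv.Perm P} {t : Equiv.Perm L} (hst : ∀ (p : P) (l : L), s p ∈ t l ↔ p ∈ l)
    (hs : s ≠ 1) {l₀ : L} (hl : ∀ p ∈ l₀, s p = p) :
    ∃ (F : Type) (_ : Field F) (_ : Fintype F) (φ : P ≃ Projectivization F (Fin 3 → F)),
      (∀ l : L, ∃ W : Submodule F (Fin 3 → F), Module.finrank F W = 2 ∧
          ∀ p : P, p ∈ l ↔ (φ p).submodule ≤ W) ∧
      (∀ W : Submodule F (Fin 3 → F), Module.finrank F W = 2 →
          ∃ l : L, ∀ p : P, p ∈ l ↔ (φ p).submodule ≤ W) := by
  letI : MulAction (coll P L) P :=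
    { smul := fun g p => g.1.1 p
      one_smul := fun _ => rfl
      mul_smul := fun _ _ _ => rfl }
  letI : MulAction (coll P L) L :=
    { smul := fun g l => g.1.2 l
      one_smul := fun _ => rfl
      mul_smul := fun _ _ _ => rfl }
  haveI : FaithfulSMul (coll P L) P := ⟨fun {g g'} h => by
    have h1 : g.1.1 = g'.1.1 := Equiv.ext h
    refine Subtype.ext (Prod.ext h1 (Equiv.ext fun l => ?_))
    obtain ⟨a, ha, b, hb, hab⟩ : ∃ a ∈ ({p : P | p ∈ l} : Finset P),
        ∃ b ∈ ({p : P | p ∈ l} : Finset P), a ≠ b := Finset.one_lt_card.1 (by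
      have := ProjectivePlane.one_lt_order P L
      rw [card_pts]; omega)
    simp only [Finset.mem_filter, Finset.mem_univ, true_and] at ha hb
    exact (Nondegenerate.eq_or_eq ((g.2 a l).2 ha) ((g.2 b l).2 hb) (h1 ▸ (g'.2 a l).2 ha)
      (h1 ▸ (g'.2 b l).2 hb)).resolve_left fun e => hab (g.1.1.injective e)⟩
  refine desarguesian_of_fix_line (G := coll P L) (fun g => g.2) (fun a b c d hab hcd => ?_)
    (x := ⟨(s, t), hst⟩) (fun e => hs (congrArg (fun g : coll P L => g.1.1) e)) (l₀ := l₀) hl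
  obtain ⟨σ, τ, h, h1, h2⟩ := h2t a b c d hab hcd
  exact ⟨⟨(σ, τ), h⟩, h1, h2⟩

end CfsgLib.OWGlue
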