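import Mathlib
import Cfsg.Agent.OWGlue.Main
import Cfsg.Agent.OstromWagner98.Count

/-!
From the statement about permutations to a plane on small types and back.
-/

set_option autoImplicit false

namespace CfsgLib.OWGlue

open MulAction Finset Configuration OstromWagner98
open scoped _root_.Classical

/-- The Ostrom–Wagner statement follows once doubly transitive planes on small types have a
perspectivity. -/
theorem desarguesian_of_exists_axis
    (H : ∀ (G P L : Type) [Group G] [Finite G] [MulAction G P] [MulAction G L] [Fintype P]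
      [Fintype L] [Nonempty P] (D : Pln G P L), Pln.Two (G := G) (P := P) → ∃ g l, g ≠ 1 ∧ g ∈ D.axG l)
    {P L : Type*} [Membership P L] [Fintype P] [Fintype L] [ProjectivePlane P L]
    (h2t : ∀ p₁ p₂ q₁ q₂ : P, p₁ ≠ p₂ → q₁ ≠ q₂ →
      ∃ (σ : Equiv.Perm P) (τ : Equiv.Perm L),
        (∀ (p : P) (l : L), σ p ∈ τ l ↔ p ∈ l) ∧ σ p₁ = q₁ ∧ σ p₂ = q₂) :
    ∃ (F : Type) (_ : Field F) (_ : Fintype F) (φ : P ≃ Projectivization F (Fin 3 → F)),
      (∀ l : L, ∃ W : Submodule F (Fin 3 → F), Module.finrank F W = 2 ∧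
          ∀ p : P, p ∈ l ↔ (φ p).submodule ≤ W) ∧
      (∀ W : Submodule F (Fin 3 → F), Module.finrank F W = 2 →
          ∃ l : L, ∀ p : P, p ∈ l ↔ (φ p).submodule ≤ W) := by
  let eP := Fintype.equivFin P
  let eL := Fintype.equivFin L
  let P' := Fin (Fintype.card P)
  let L' := Fin (Fintype.card L)
  let I : P' → L' → Prop := fun p l => eP.symm p ∈ eL.symm l
  let G : Subgroup (Equiv.Perm P' × Equiv.Perm L') :=
    { carrier := {g | ∀ p l, I (g.1 p) (g.2 l) ↔ I p l}
      one_mem' := fun _ _ => Iff.rfl
      mul_mem' := fun {a b} ha hb p l => (ha _ _).trans (hb p l)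
      inv_mem' := fun {a} ha p l => by
        have h := ha (a.1⁻¹ p) (a.2⁻¹ l)
        simp only [Equiv.Perm.inv_def, Equiv.apply_symm_apply] at h ⊢
        exact h.symm }
  letI : MulAction G P' :=
    { smul := fun g p => g.1.1 p
      one_smul := fun _ => rfl
      mul_smul := fun _ _ _ => rfl }
  letI : MulAction G L' :=
    { smul := fun g l => g.1.2 l
      one_smul := fun _ => rfl
      mul_smul := fun _ _ _ => rfl }
  have hn : 2 ≤ ProjectivePlane.order P L := ProjectivePlane.one_lt_order P L
  have hpts : ∀ l : L', Nat.card {p : P' // I p l} = ProjectivePlane.order P L + 1 := fun l => by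
    rw [← ProjectivePlane.pointCount_eq (P := P) (eL.symm l), pointCount]
    exact Nat.card_congr (Equiv.subtypeEquiv eP.symm fun p => Iff.rfl)
  have hfaith : ∀ g : G, (∀ p : P', g • p = p) → g = 1 := by
    intro g hg
    have h1 : g.1.1 = 1 := Equiv.ext hg
    refine Subtype.ext (Prod.ext h1 (Equiv.ext fun l => ?_))
    obtain ⟨⟨a, ha⟩, ⟨b, hb⟩, hab⟩ := @exists_pair_ne _ (Finite.one_lt_card_iff_nontrivial.1
      (show 1 < Nat.card {p : P' // I p l} by rw [hpts]; omega))
    have h2 := (g.2 a l).2 ha
    have h3 := (g.2 b l).2 hb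
    rw [h1, Equiv.Perm.one_apply] at h2 h3
    refine eL.symm.injective ((Nondegenerate.eq_or_eq h2 h3 ha hb).resolve_left ?_)
    exact fun e => hab (Subtype.ext (eP.symm.injective e))
  let D : Pln G P' L' :=
    { inc := I
      inc_smul := fun g p l => g.2 p l
      n := ProjectivePlane.order P L
      two_le := hn
      join := fun a b h => by
        obtain ⟨l, hl, -⟩ := HasLines.existsUnique_line P L _ _ (eP.symm.injective.ne h)
        exact ⟨eL l, by simpa [I] using hl.1, by simpa [I] using hl.2⟩
      meet := fun l m h => by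
        obtain ⟨p, hp, -⟩ := HasPoints.existsUnique_point P L _ _ (eL.symm.injective.ne h)
        exact ⟨eP p, by simpa [I] using hp.1, by simpa [I] using hp.2⟩
      eq_or := fun h1 h2 h3 h4 =>
        (Nondegenerate.eq_or_eq h1 h2 h3 h4).imp (fun e => eP.symm.injective e)
          fun e => eL.symm.injective e
      pts := hpts
      lns := fun p => by
        rw [← ProjectivePlane.lineCount_eq (L := L) (eP.symm p), lineCount]
        exact Nat.card_congr (Equiv.subtypeEquiv eL.symm fun l => Iff.rfl)
      faithful := hfaith }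
  have hTwo : Pln.Two (G := G) (P := P') := by
    intro a b c d hab hcd
    obtain ⟨σ, τ, h, h1, h2⟩ := h2t (eP.symm a) (eP.symm b) (eP.symm c) (eP.symm d)
      (eP.symm.injective.ne hab) (eP.symm.injective.ne hcd)
    refine ⟨⟨((eP.symm.trans σ).trans eP, (eL.symm.trans τ).trans eL), fun p l => ?_⟩, ?_, ?_⟩
    · simpa [I] using h (eP.symm p) (eL.symm l)
    · show eP (σ (eP.symm a)) = c
      rw [h1, Equiv.apply_symm_apply]
    · show eP (σ (eP.symm b)) = d
      rw [h2, Equiv.apply_symm_apply]
  haveI : Nonempty P' :=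
    ⟨eP (Classical.choose (ProjectivePlane.exists_config (P := P) (L := L)))⟩
  obtain ⟨g, l, hg1, hg⟩ := H G P' L' D hTwo
  refine desarguesian h2t (s := (eP.trans g.1.1).trans eP.symm) (t := (eL.trans g.1.2).trans eL.symm)
    (fun p m => ?_) (fun e => hg1 (hfaith g fun p => ?_)) (l₀ := eL.symm l) fun p hp => ?_
  · simpa [I] using g.2 (eP p) (eL m)
  · have h := congrArg (fun f : Equiv.Perm P => eP (f (eP.symm p))) e
    simp only [Equiv.trans_apply, Equiv.apply_symm_apply, Equiv.Perm.one_apply] at h
    exact h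
  · have h := hg (eP p) (show I (eP p) l by simpa [I] using hp)
    show eP.symm (g.1.1 (eP p)) = p
    rw [show g.1.1 (eP p) = eP p from h, Equiv.symm_apply_apply]

end CfsgLib.OWGlue
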